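import Cfsg.Agent.Srg.Idx
import Cfsg.Agent.Leech.MCls

/-! Subgroups of small index in the large Mathieu groups. -/

set_option autoImplicit false
set_option maxRecDepth 1000000
set_option maxHeartbeats 4000000

namespace CF.Leech.M

open Cfsg CF.Comp CF.Comp.Mat CF.Bt CF.Srg MulAction Subgroup
open scoped Pointwise

noncomputable def wx : List ℕ := [3, 2, 4, 2, 3, 2, 2, 4, 2, 4, 1, 1, 1, 1, 3, 1]
noncomputable def wi : List ℕ := [1, 1, 1, 4, 4, 2, 2, 3, 2, 4, 2, 2, 4, 2, 2, 4, 1, 4]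
noncomputable def wd : List ℕ := [3, 3, 3, 2, 3, 1, 3, 1, 4, 1, 1, 4, 4, 2, 3, 2, 3]
noncomputable def u11 : List ℕ := [3, 1, 4, 2, 3, 3, 1, 4, 1, 3, 2, 2, 3, 1, 3]
noncomputable def q7 : List (List ℕ) := [[1, 3, 2, 3, 1, 3, 1, 3, 1, 3, 1, 1, 4, 2], [3, 1, 1, 4, 4, 2, 4, 2, 4, 2, 2, 4, 1, 1, 3, 3, 1], [4, 4, 4, 2, 3, 1, 3, 2, 3, 2, 2, 2, 2, 4, 2, 3, 2, 2], [3, 3, 2, 4, 4, 4, 4, 2, 2, 4, 2, 2, 4, 2, 3, 2, 3], [4, 4, 1, 3, 2, 2, 2, 3, 3, 3, 2, 4, 2, 3, 3, 1, 3, 2, 2], [1, 4, 4, 1, 1, 1, 4, 1, 1, 4, 1, 4, 2, 2, 2, 4, 2], [2, 2, 4, 4, 4, 2, 4, 4, 2, 3, 2, 3, 3, 3, 2, 2, 2]]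
noncomputable def q10 : List (List ℕ) := [3, 3, 1, 1, 1, 4, 2, 3, 2, 3, 2, 4, 2, 4, 1, 1, 1, 3] :: [1, 1, 4, 1, 4, 1, 1, 4, 1, 1, 1, 3, 3, 3, 1, 4, 2, 3, 3] :: [3, 1, 4, 1, 4, 4, 2, 4, 2, 4, 2, 4, 2, 3, 2, 3, 2, 4] :: q7
noncomputable def c10 : List (List ℕ × List (List ℕ)) := [([], [[15, 13, 11, 7, 3], [15, 13, 11, 9, 7, 1], [15, 13, 11, 5], [9, 7], [9], [17, 9, 7, 3, 1], [13, 11, 9, 7, 1], [13, 3], [11, 9, 7, 3, 1]]), ([], [[15, 13, 11, 1], [9, 7, 3, 1], [15, 13, 11, 5], [15, 13, 11, 7], [15], [13, 9], [15, 11], [9]]), ([], [[11, 1], [3], [13, 11, 9, 5], [7], [9], [11], [13]]), ([], [[9, 7, 5, 3, 1], [3], [9, 5], [9, 7], [9], [11, 7, 5]]), ([], [[1], [7, 5], [9, 7], [9, 7, 3], [9, 7, 5, 3]]), ([], [[7, 5, 3, 1], [7, 3, 1], [3, 1], [5, 3]]), ([], [[1], [3], [5]]), ([], [[1], [3]]), ([], [[1]]), ([], [])]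

theorem pc10 : Pc m 2 q10 := eqM.pc (c := c10) (by decide +kernel)

theorem full2 : ∀ x ∈ (⊤ : Subgroup M24), ∀ i < 276, x • D2.pt i ∈ D2.set (full 276) := fun x _ i hi => by
  rw [f2]; exact (card_sm x _).trans (f2.le (Dom.mem_set_full.2 ⟨i, hi, rfl⟩))

theorem card_top' : Nat.card (⊤ : Subgroup M24) = 244823040 := card_top.trans card_M24

theorem card_of_index {G : Type*} [Group G] {H : Subgroup G} {m c : ℕ} (h : H.index = m) (hG : Nat.card G = m * c)
    (h0 : 0 < m) : Nat.card H = c := Nat.eq_of_mul_eq_mul_left h0 (by rw [← hG, ← h, index_mul_card])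

theorem eq_stab {X : Type*} [MulAction M24 X] {x : M24} {H L : Subgroup M24} (hx : x ∈ L) {a : X}
    (h : Cj x (L ⊓ stabilizer M24 a) H) : H = L ⊓ stabilizer M24 (x • a) :=
  h.eq ((Cj.self hx).inf (Cj.stab x a)) rfl

variable {H : Subgroup M24}

theorem idx759 (h : Nat.card H = 322560) : ∃ x : M24, H = stabilizer M24 (x • oO) := by
  obtain ⟨x, -, K, a, -, b, c⟩ := conj_ge (m := 759) le_top Nat.prime_two h card_top' (by decide) le_top
    (pc10.pgroup two_ne_zero)
  obtain ⟨U, d, e⟩ := Srg.idx r2 (by decide) le_top (ls := [[1], [3]]) (fun _ _ => trivial) c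
    (M := 65521) (F := 1201) (k := 1) (Rs := [0, 2, 5, 8, 15, 42, 46, 159])
    (O := full 276) (i := 159) (Us := [0xe80483a0120d009050090400000048200000000000000000000000000041000008000])
    (fun x t => full2 x t _ (by decide)) b (m := 759) card_top' (by decide +kernel)
  rw [List.mem_singleton.1 d] at e
  rw [eq_of_exact xO r2 le_top (by decide +kernel) e (by rw [b, xO.card]; decide +kernel)] at a
  exact ⟨x, a.eq (Cj.stab x oO) rfl⟩

theorem idx1771 (h : Nat.card H = 138240) : ∃ x : M24, H = stabilizer M24 (x • S0) := by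
  obtain ⟨x, -, K, a, -, b, c⟩ := conj_ge (m := 1771) le_top Nat.prime_two h card_top' (by decide) le_top
    (pc10.pgroup two_ne_zero)
  obtain ⟨U, d, e⟩ := Srg.idx r2 (by decide) le_top (ls := [[1], [3]]) (fun _ _ => trivial) c
    (M := 65521) (F := 2782) (k := 1) (Rs := [0, 2, 5, 8, 15, 42, 46, 159])
    (O := full 276) (i := 159) (Us := [0xc00003000008000050090002410048100140014304108404220801010440080400100])
    (fun x t => full2 x t _ (by decide)) b (m := 1771) card_top' (by decide +kernel)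
  rw [List.mem_singleton.1 d] at e
  rw [eq_of_exact xS r2 le_top (by decide +kernel) e (by rw [b, xS.card]; decide +kernel)] at a
  exact ⟨x, a.eq (Cj.stab x S0) rfl⟩

theorem idx253 (h : Nat.card H = 967680) : False := by
  obtain ⟨x, -, K, a, -, b, c⟩ := conj_ge (m := 253) le_top Nat.prime_two h card_top' (by decide) le_top
    (pc10.pgroup two_ne_zero)
  obtain ⟨U, d, e⟩ := Srg.idx r2 (by decide) le_top (ls := [[1], [3]]) (fun _ _ => trivial) c
    (M := 65521) (F := 328) (k := 1) (Rs := [0, 2, 5, 8, 15, 42, 46, 159])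
    (O := full 276) (i := 159) (Us := [])
    (fun x t => full2 x t _ (by decide)) b (m := 253) card_top' (by decide +kernel)
  exact absurd d List.not_mem_nil

theorem ox : orderOf (ev m wx) = 11 := ord_m (by norm_num) (by decide +kernel)

theorem cx : Nat.card (centralizer {ev m wx}) ≤ 11 := by
  rw [← eqM.conj (s := u11) (a := e11) (b := wx) (by decide +kernel), card_cent_conj]
  exact cleOK_one xM k5 (by decide) card_M24 ke11

theorem px : IsPGroup 11 (zpowers (ev m wx)) := IsPGroup.of_card (n := 1) ((Nat.card_zpowers _).trans ox)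

theorem nx : clo m [wx, wi, wd] ≤ normalizer (zpowers (ev m wx) : Set M24) :=
  clo_single (f := m) wx ▸ eqM.nrmAll (us := [[[1]], [[2]], [[1, 1, 1]]]) (by decide +kernel)

theorem idx276 (h : Nat.card H = 887040) : ∃ x : M24, H = stabilizer M24 (x • s2) := by
  obtain ⟨x, -, K, a, -, b, c⟩ := conj_ge (m := 276) le_top (by norm_num) h card_top' (by decide) le_top px
  obtain ⟨U, d, e⟩ := Srg.idx r2 (by decide) le_top (ls := [[1], [3]]) (fun _ _ => trivial)
    ((le_inf le_top nx).trans (norm_le le_top (c (mem_zpowers _)) (by norm_num) ox (r := 80640) b (by decide)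
      (r' := 22256640) card_top' (by decide) cx (by decide +kernel)))
    (M := 65521) (F := 357) (k := 5) (Rs := [0, 2, 10, 11, 12, 14, 253])
    (O := full 276) (i := 12) (Us := [0x1fffff7ffffbffffbffff7fffdfffefffefffdfff7ffbffbff7fdfefefdf7bb4])
    (fun x t => full2 x t _ (by decide)) b (m := 276) card_top' (by decide +kernel)
  rw [List.mem_singleton.1 d] at e
  rw [eq_of_exact x2 r2 le_top (by decide +kernel) e (by rw [b, x2.card]; decide +kernel)] at a
  exact ⟨x, a.eq (Cj.stab x s2) rfl⟩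

/-- the stabiliser of one point -/
abbrev L1 : Subgroup M24 := stabilizer M24 (pt 23)
/-- the stabiliser of two points -/
abbrev L2 : Subgroup M24 := stabilizer M24 (pt 23) ⊓ stabilizer M24 (pt 0)

theorem card_L1 : Nat.card L1 = 10200960 := x1.card.trans (by decide +kernel)
theorem card_L2 : Nat.card L2 = 443520 := x11.card.trans (by decide +kernel)

theorem mem1 {ws : List (List ℕ)} (h : lall (fixW a2 23) ws = true) : clo m ws ≤ L1 :=
  clo_le.2 fun w a => r0.fixW (by decide) (lall_iff.1 h w a)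

theorem mem2 {ws : List (List ℕ)} (h : lall (fixW a2 23) ws = true) (h' : lall (fixW a2 0) ws = true) :
    clo m ws ≤ L2 := le_inf (mem1 h) (clo_le.2 fun w a => r0.fixW (by decide) (lall_iff.1 h' w a))

theorem x2' : zpowers (ev m wx) ≤ L2 := clo_single (f := m) wx ▸ mem2 (by decide +kernel) (by decide +kernel)

theorem idx210 (hH : H ≤ L2) (h : Nat.card H = 2112) : False := by
  obtain ⟨x, -, K, -, -, b, c⟩ := conj_ge (m := 210) hH (by norm_num) h card_L2 (by decide) x2' px
  exact absurd (norm_count (c (mem_zpowers _)) (by norm_num) ox (r := 192) b (by decide) cx) (by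
    rw [show nrmL 11 192 11 = [] by decide +kernel]; exact List.not_mem_nil)

theorem idx56 (hH : H ≤ L2) (h : Nat.card H = 7920) : False := by
  obtain ⟨x, -, K, -, a, b, c⟩ := conj_ge (m := 56) hH (by norm_num) h card_L2 (by decide) x2' px
  obtain ⟨U, d, e⟩ := Srg.idx r2 (by decide) a (Exact.mem0 x11) (ws := [wx, wd])
    ((le_inf (mem2 (by decide +kernel) (by decide +kernel)) (le_trans (clo_le.2 fun w t => ev_mem_clo m (by
      revert w; simp)) nx)).trans (norm_le a (c (mem_zpowers _)) (by norm_num) ox (r := 720) b (by decide)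
      (r' := 40320) card_L2 (by decide) cx (by decide +kernel)))
    (M := 65521) (F := 82) (k := 5) (Rs := [2, 11, 12, 14, 26])
    (O := 0x1fffff7ffffbffffbffff7fffdfffefffefffdfff7ffbffbff7fdfefefdf7bb4) (i := 12) (Us := [])
    (inv_of_exact x11 r2 (by decide) (by decide +kernel) (by decide +kernel)) b (m := 56) card_L2 (by decide +kernel)
  exact absurd d List.not_mem_nil

theorem stab_set (a : ℕ) : stabilizer M24 (D0.set a) = stabilizer M24 (ofMask a) := by
  ext g
  rw [mem_stabilizer_iff, mem_stabilizer_iff, set_eq, ← Finset.coe_inj]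
  exact Eq.congr_left (Finset.coe_smul_finset _ _).symm

theorem idx23 (hH : H ≤ L1) (h : Nat.card H = 40320) :
    ∃ x ∈ L1, H = L1 ⊓ stabilizer M24 (x • ofMask 5) ∨ H = L1 ⊓ stabilizer M24 (x • oO) := by
  obtain ⟨x, t, K, a', a, b, c⟩ := conj_ge (m := 253) hH Nat.prime_two h card_L1 (by decide)
    (mem1 (by decide +kernel)) (Pc.pgroup two_ne_zero (ss := q7) pc10.2.2.2.2.2.2)
  obtain ⟨U, d, e⟩ := Srg.idx r0 (by decide) a (Exact.mem0 x1) c
    (M := 65521) (F := 328) (k := 1) (Rs := [0, 1, 3, 4])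
    (O := 8388607) (i := 0) (Us := [5, 147503])
    (inv_of_exact x1 r0 (by decide) (by decide +kernel) (by decide +kernel)) b (m := 253) card_L1 (by decide +kernel)
  rw [e, stabIn, stab_set] at a'
  rcases List.mem_pair.1 d with rfl | rfl
  · exact ⟨x, t, .inl (eq_stab t a')⟩
  · refine ⟨x, t, .inr (eq_stab t (Eq.subst (motive := fun A => Cj x A H) (Subgroup.ext fun g => and_congr_right
      fun u => ?_) a'))⟩
    have e1 : oO = insert (pt 23) (ofMask 147503) := by decide +kernel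
    have e2 : (g : Pm) (pt 23) = pt 23 := u
    have e3 : pt 23 ∉ ofMask 147503 := by decide +kernel
    show (g : Pm) • ofMask 147503 = ofMask 147503 ↔ (g : Pm) • oO = oO
    rw [e1, ← insert_sm, e2]
    exact ⟨fun e => by rw [e], fun e => (Finset.erase_insert (by rwa [← e2, mem_sm])).symm.trans
      ((congrArg (Finset.erase · (pt 23)) e).trans (Finset.erase_insert e3))⟩

theorem card_map_sub {L : Subgroup M24} (K : Subgroup L) : Nat.card (K.map L.subtype) = Nat.card K :=
  (Nat.card_congr (K.equivMapOfInjective _ L.subtype_injective).toEquiv).symm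

/-- transport of a subgroup of `L` to the model `L0` -/
theorem to_model {L L0 : Subgroup M24} {g : M24} (h : Cj g L0 L) (K : Subgroup L) {i c : ℕ} (hK : K.index = i)
    (h0 : Nat.card L0 = i * c) (hi : 0 < i) : ∃ H ≤ L0, Nat.card H = c ∧ Cj g H (K.map L.subtype) := by
  have h3 : Cj g (MulAut.conj g⁻¹ • K.map L.subtype) (K.map L.subtype) := by simpa using (cj_smul g⁻¹ _).symm
  exact ⟨_, fun k a => (h k).2 (map_subtype_le K ((h3 k).1 a)),
    h3.card.symm.trans ((card_map_sub K).trans (card_of_index hK (h.card.trans h0) hi)), h3⟩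

theorem eq_sub {L A : Subgroup M24} {K : Subgroup L} (h : K.map L.subtype = L ⊓ A) : K = A.subgroupOf L := by
  rw [← inf_subgroupOf_left, ← h, subgroupOf, comap_map_eq_self_of_injective L.subtype_injective]

/-! ### the linear fractional maps -/

/-- the affine group -/
noncomputable abbrev B23 : Subgroup M24 := clo m [[1], wx]
/-- the projective group -/
noncomputable abbrev A23 : Subgroup M24 := clo m [[1], wi, wx]

theorem B_le : B23 ≤ L1 := mem1 (by decide +kernel)

theorem o23 : orderOf (ev m [1]) = 23 := ord_m (by norm_num) oe23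

theorem c23 : Nat.card (centralizer {ev m [1]}) ≤ 23 := cleOK_one xM k5 (by decide) card_M24 ke23

theorem nB : B23 ≤ normalizer (zpowers (ev m [1]) : Set M24) :=
  clo_single (f := m) [1] ▸ eqM.nrmAll (us := [[[1]], [[1, 1]]]) (by decide +kernel)

theorem aB : ev m [1] ∈ B23 := ev_mem_clo m (by simp)
theorem xB : ev m wx ∈ B23 := ev_mem_clo m (by simp)

theorem n23 : Nat.card ↥(L1 ⊓ normalizer (zpowers (ev m [1]) : Set M24)) = 253 := by
  have := norm_count (B_le aB) (by norm_num) o23 (r := 443520) card_L1 (by decide) c23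
  rwa [show nrmL 23 443520 23 = [253] by decide +kernel, List.mem_singleton] at this

theorem n11 : Nat.card ↥(L1 ⊓ normalizer (zpowers (ev m wx) : Set M24)) = 55 := by
  have := norm_count (B_le xB) (by norm_num) ox (r := 927360) card_L1 (by decide) cx
  rwa [show nrmL 11 927360 11 = [55] by decide +kernel, List.mem_singleton] at this

theorem card_B : Nat.card B23 = 253 := le_antisymm (n23 ▸ card_le_of_le (le_inf B_le nB))
  (le_of_eq_of_le (by decide +kernel) (r0.chain_le (by decide) (c := [⟨0, [[1]], 22⟩, ⟨1, [wx], 10⟩]) (by decide +kernel)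
    fun _ => ev_mem_clo m))

theorem max_B : MaxIn B23 L1 := by
  refine ⟨B_le, fun e => absurd (card_B.symm.trans (e ▸ card_L1)) (by decide), fun K h1 h2 => ?_⟩
  obtain ⟨h, e⟩ := card_dvd_of_le h1
  have h3 := card_dvd_of_le h2
  rw [card_B] at e
  rw [e, card_L1] at h3
  replace h3 : h ∣ 40320 := Nat.dvd_of_mul_dvd_mul_left (by decide) h3
  have h4 := norm_count (h1 aB) (by norm_num) o23 (r := 11 * h) (e.trans (by ring))
    (fun t => absurd (t.trans (Nat.mul_dvd_mul_left 11 h3)) (by decide)) c23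
  have h5 := norm_count (h1 xB) (by norm_num) ox (r := 23 * h) (e.trans (by ring))
    (fun t => absurd (t.trans (Nat.mul_dvd_mul_left 23 h3)) (by decide)) cx
  rw [le_antisymm ((card_le_of_le (inf_le_inf_right _ h2)).trans n23.le)
    (card_B.ge.trans (card_le_of_le (le_inf h1 nB)))] at h4
  have h6 := allBin_spec (show allBin (fun h => Bool.rec true (decide (∀ t ∈ nrmL 11 (23 * h) 11,
    253 ∈ nrmL 23 (11 * h) 23 → t ∣ 55 → h = 1 ∨ h = 40320)) (Nat.beq (Nat.mod 40320 h) 0)) 40321 16 0 = true by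
      decide +kernel) (by decide) h (Nat.lt_succ_of_le (Nat.le_of_dvd (by decide) h3))
  rw [brec_imp, beq_iff, decide_eq_true_eq] at h6
  rcases h6 (Nat.mod_eq_zero_of_dvd h3) _ h5 h4 (n11 ▸ card_dvd_of_le (inf_le_inf_right _ h2)) with rfl | rfl
  exacts [.inl (eq_of_le_of_card_ge h1 (by rw [e, card_B])).symm, .inr (eq_of_le_of_card_ge h2 (by rw [e, card_L1]))]

theorem BA : B23 ≤ A23 := clo_le.2 fun w t => ev_mem_clo m (by revert w; simp)

theorem over_A {K : Subgroup M24} (h : A23 ≤ K) : Nat.card K = 6072 ∨ K = ⊤ := by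
  have h1 : orbIn K (pt 23) = Set.univ := Set.eq_univ_of_forall fun p =>
    r0.exists_of_mem_orb_pt (clo_le.1 h) (b := 23) (k := 7) (by decide) (by
      rw [show orb a2 [[1], wi, wx] 7 (Nat.shiftLeft (nat_lit 1) 23) = full 24 by decide +kernel, f0]; trivial)
  have h2 := card_eq_orb_mul K (pt 23)
  rw [h1, Set.ncard_univ, Nat.card_eq_fintype_card (α := GolayPt), card_pts] at h2
  rcases max_B.2.2 (stabIn K (pt 23)) (le_inf (BA.trans h) B_le) inf_le_right with e | e <;> rw [e] at h2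
  · exact .inl (by rw [h2, card_B])
  · exact .inr (eq_top_of_card_eq _ (by rw [h2, card_L1, card_M24]))

theorem A_ne : A23 ≠ ⊤ := fun e => by
  have := wk_sound rS' (L := ⊤) (ls := [[3]]) (fun _ _ => trivial) (M := 65521) (F := 2) (s := 2)
    (U := orb nS [[1], wi, wx] 5 8) (by decide +kernel)
  rw [stabIn, top_inf_eq, top_le_iff.1 (e.ge.trans (rS'.closedW (by decide +kernel))), card_top'] at this
  omega

theorem card_A : Nat.card A23 = 6072 := (over_A le_rfl).resolve_right A_ne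

theorem max_A : IsCoatom A23 := MaxIn.isCoatom_top ⟨le_top, A_ne, fun _ h _ =>
  (over_A h).imp_left fun e => (eq_of_le_of_card_ge h (by rw [e, card_A])).symm⟩

theorem coe_ev {w : List ℕ} {σ : Pm} (h : ∀ j < 24, σ (pt j) = pt (appW a2 w j)) : σ = (ev m w : M24) :=
  Equiv.ext (forall_pt.2 fun j hj => (h j hj).trans (r0.smul_pt w hj).symm)

/-- the multiplications -/
def mulH : (ZMod 23)ˣ →* Pm := MonoidHom.mk' (fun u => Equiv.optionCongr (Units.mulLeft u)) fun u v => by
  ext p; cases p <;> simp [mul_assoc]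

/-- the unit two -/
def u2 : (ZMod 23)ˣ := ⟨2, 12, by decide, by decide⟩

theorem sq_iff {u : (ZMod 23)ˣ} (h : IsSquare u) : u ∈ zpowers u2 := by
  obtain ⟨r, rfl⟩ := h
  obtain ⟨k, -, e⟩ := (by decide : ∀ r : ZMod 23, r ≠ 0 → ∃ k < 11, r * r = 2 ^ k) r
    (@Units.ne_zero _ _ ⟨0, 1, by decide⟩ r)
  exact ⟨k, Units.ext (by simpa [u2] using e.symm)⟩

theorem eA : Equiv.optionCongr (Equiv.addRight (1 : ZMod 23)) = (ev m [1] : M24) := coe_ev (by decide +kernel)
theorem eI : projInv = (ev m wi : M24) := coe_ev (by decide +kernel)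
theorem eX : mulH u2 = (ev m wx : M24) := coe_ev (by decide +kernel)

theorem closure_eq {S : Set Pm} {ws : List (List ℕ)} (h : S = (fun w => ((ev m w : M24) : Pm)) '' {w | w ∈ ws}) :
    closure (S ∪ {g | ∃ u : (ZMod 23)ˣ, IsSquare u ∧ g = Equiv.optionCongr (Units.mulLeft u)}) =
      (clo m (ws ++ [wx])).map M24.subtype := by
  subst h
  refine le_antisymm ((closure_le _).2 ?_) (map_le_iff_le_comap.2 (clo_le.2 fun w t => subset_closure ?_))
  · rintro _ (⟨w, t, rfl⟩ | ⟨u, t, rfl⟩)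
    · exact mem_map_of_mem _ (ev_mem_clo m (List.mem_append_left _ t))
    · obtain ⟨k, rfl⟩ := sq_iff t
      show mulH (u2 ^ k) ∈ _
      rw [map_zpow, eX]
      exact zpow_mem (mem_map_of_mem _ (ev_mem_clo m (List.mem_append_right _ List.mem_cons_self))) k
  · rcases List.mem_append.1 t with t | t
    · exact .inl ⟨w, t, rfl⟩
    · exact .inr ⟨u2, ⟨⟨5, 14, by decide, by decide⟩, by decide⟩, List.mem_singleton.1 t ▸ eX.symm⟩

end CF.Leech.M
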