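import Mathlib

/-! Poisson summation for Gaussians attached to positive definite quadratic forms on `ℤ ^ n`. -/

set_option autoImplicit false

namespace CF.Leech.Pois

open Complex
open scoped Real

/-- Summability of all shifted Gaussians of `Q`. -/
def Sm (n : ℕ) (Q : (Fin n → ℝ) → ℝ) : Prop :=
  ∀ r : ℝ, 0 < r → ∀ w : Fin n → ℝ, Summable fun x : Fin n → ℤ => Real.exp (-r * Q (fun i => x i - w i))

/-- The Poisson formula for the pair `Q`, `Q'`, up to a constant. -/
def Poi (n : ℕ) (Q Q' : (Fin n → ℝ) → ℝ) : Prop :=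
  ∃ κ : ℂ, ∀ a : ℂ, 0 < a.re → ∀ w : Fin n → ℝ,
    ∑' x : Fin n → ℤ, cexp (-π * a * Q (fun i => x i) + 2 * π * I * (∑ i, (x i : ℝ) * w i : ℝ)) =
      κ * (1 / a ^ (1 / 2 : ℂ)) ^ n * ∑' ξ : Fin n → ℤ, cexp (-π / a * Q' (fun i => ξ i - w i))

theorem sm1 {r : ℝ} (hr : 0 < r) (s : ℝ) : Summable fun k : ℤ => Real.exp (-r * (k - s) ^ 2) := by
  have h0 : Summable fun k : ℕ => Real.exp (-r * k) := by
    have := summable_geometric_of_lt_one (Real.exp_pos (-r)).le (Real.exp_lt_one_iff.2 (by linarith))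
    refine this.congr fun k => ?_
    rw [← Real.exp_nat_mul, mul_comm]
  have h1 : Summable fun k : ℤ => Real.exp (-r * |(k : ℝ)|) := by
    refine Summable.of_nat_of_neg ?_ ?_
    · simpa using h0
    · simpa using h0
  refine Summable.of_nonneg_of_le (fun _ => (Real.exp_pos _).le) (fun k => ?_)
    (h1.mul_left (Real.exp (r * (|s| + 1))))
  rw [← Real.exp_add, Real.exp_le_exp]
  have h2 : |(k : ℝ)| ≤ |k - s| + |s| := by
    have := abs_add_le ((k : ℝ) - s) s
    simpa using this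
  have h3 : |(k : ℝ) - s| - 1 ≤ (k - s) ^ 2 := by
    rw [← sq_abs]; nlinarith [sq_nonneg (|(k : ℝ) - s| - 1), abs_nonneg ((k : ℝ) - s)]
  nlinarith

theorem sm_sq (n : ℕ) : Sm n (fun y => ∑ i, y i ^ 2) := by
  induction n with
  | zero => intro r _ w; exact Summable.of_finite
  | succ n ih =>
    intro r hr w
    rw [← (Fin.consEquiv (fun _ : Fin (n + 1) => ℤ)).summable_iff]
    have := (sm1 hr (w 0)).mul_of_nonneg (ih r hr (fun i => w i.succ)) (fun _ => (Real.exp_pos _).le)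
      (fun _ => (Real.exp_pos _).le)
    refine this.congr fun p => ?_
    simp only [Function.comp, Fin.consEquiv_apply, Fin.sum_univ_succ, Fin.cons_zero, Fin.cons_succ, ← Real.exp_add]
    congr 1; ring

theorem Sm.of_le {n : ℕ} {Q : (Fin n → ℝ) → ℝ} {ε : ℝ} (hε : 0 < ε) (h : ∀ y, ε * ∑ i, y i ^ 2 ≤ Q y) : Sm n Q := by
  intro r hr w
  refine Summable.of_nonneg_of_le (fun _ => (Real.exp_pos _).le) (fun x => ?_) (sm_sq n (r * ε) (by positivity) w)
  rw [Real.exp_le_exp]
  have := h (fun i => x i - w i)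
  nlinarith

theorem Sm.cx {n : ℕ} {Q : (Fin n → ℝ) → ℝ} (h : Sm n Q) {a : ℂ} (ha : 0 < a.re) (w : Fin n → ℝ)
    (t : (Fin n → ℤ) → ℝ) :
    Summable fun x : Fin n → ℤ => ‖cexp (-π * a * Q (fun i => x i - w i) + 2 * π * I * t x)‖ := by
  refine (h (π * a.re) (by have := Real.pi_pos; positivity) w).congr fun x => ?_
  rw [Complex.norm_exp]
  congr 1
  simp

theorem re_inv_pos {a : ℂ} (ha : 0 < a.re) : 0 < (a⁻¹).re := by
  rw [Complex.inv_re]
  exact div_pos ha (Complex.normSq_pos.2 (by rintro rfl; simp at ha))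

theorem one_dim {A : ℂ} (hA : 0 < A.re) (s w : ℝ) :
    ∑' k : ℤ, cexp (-π * A * (k + s) ^ 2 + 2 * π * I * (k * w)) =
      1 / A ^ (1 / 2 : ℂ) * ∑' k : ℤ, cexp (-π / A * (k - w) ^ 2 + 2 * π * I * (s * (k - w))) := by
  have hA0 : A ≠ 0 := by rintro rfl; simp at hA
  have h := Complex.tsum_exp_neg_quadratic hA (I * w - A * s)
  have e1 : ∀ k : ℤ, cexp (-π * A * (k + s) ^ 2 + 2 * π * I * (k * w)) =
      cexp (-π * A * s ^ 2) * cexp (-π * A * k ^ 2 + 2 * π * (I * w - A * s) * k) := fun k => by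
    rw [← Complex.exp_add]; congr 1; ring
  have e2 : ∀ k : ℤ, cexp (-π / A * (k - w) ^ 2 + 2 * π * I * (s * (k - w))) =
      cexp (-π * A * s ^ 2) * cexp (-π / A * (k + I * (I * w - A * s)) ^ 2) := fun k => by
    rw [← Complex.exp_add]; congr 1
    field_simp
    linear_combination (exp := 1) (-(2 * (k : ℂ) * w) - (I ^ 2 - 1) * w ^ 2 + 2 * I * w * A * s - A ^ 2 * s ^ 2) * -(I_sq)
  simp only [e1, e2, tsum_mul_left, h]
  ring

theorem Poi.step {n : ℕ} {Q Q' : (Fin n → ℝ) → ℝ} {R R' : (Fin (n + 1) → ℝ) → ℝ} {d : ℝ} (hd : 0 < d)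
    (c : Fin n → ℝ)
    (hR : ∀ y, R y = d * (y 0 + ∑ i, c i * y i.succ) ^ 2 + Q (fun i => y i.succ))
    (hR' : ∀ y, R' y = y 0 ^ 2 / d + Q' (fun i => y i.succ - y 0 * c i))
    (sQ : Sm n Q) (sR : Sm (n + 1) R) (sR' : Sm (n + 1) R') (h : Poi n Q Q') : Poi (n + 1) R R' := by
  obtain ⟨κ, h⟩ := h
  refine ⟨κ * (1 / (d : ℂ) ^ (1 / 2 : ℂ)), fun a ha w => ?_⟩
  have ha0 : a ≠ 0 := by rintro rfl; simp at ha
  have hd0 : (d : ℂ) ≠ 0 := by exact_mod_cast hd.ne'
  have hA : 0 < (a * d).re := by simpa using mul_pos ha hd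
  have s1 := (sR.cx ha 0 (fun x => ∑ i, (x i : ℝ) * w i)).of_norm
  have s2 := (sR'.cx (re_inv_pos ha) w (fun _ => 0)).of_norm
  simp only [Pi.zero_apply, sub_zero] at s1
  simp only [ofReal_zero, mul_zero, add_zero, ← div_eq_mul_inv] at s2
  rw [← (Fin.consEquiv (fun _ : Fin (n + 1) => ℤ)).summable_iff] at s1 s2
  rw [← (Fin.consEquiv (fun _ : Fin (n + 1) => ℤ)).tsum_eq, ← (Fin.consEquiv (fun _ : Fin (n + 1) => ℤ)).tsum_eq]
  simp only [Function.comp_def] at s1 s2
  simp only [Fin.consEquiv_apply] at s1 s2 ⊢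
  rw [s1.tsum_prod, s2.tsum_prod]
  have c1 := Summable.tsum_comm (f := fun (k : ℤ) (x : Fin n → ℤ) =>
    cexp (-π * a * R (fun i => ((Fin.cons k x : Fin (n + 1) → ℤ) i : ℝ)) +
        2 * π * I * (∑ i, (((Fin.cons k x : Fin (n + 1) → ℤ) i : ℤ) : ℝ) * w i : ℝ))) s1
  dsimp only
  rw [← c1]
  -- the inner sums
  have e1 : ∀ x : Fin n → ℤ, ∑' k : ℤ, cexp (-π * a * R (fun i => ((Fin.cons k x : Fin (n + 1) → ℤ) i : ℝ)) +
        2 * π * I * (∑ i, (((Fin.cons k x : Fin (n + 1) → ℤ) i : ℤ) : ℝ) * w i : ℝ)) =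
      1 / (a * d) ^ (1 / 2 : ℂ) * ∑' k : ℤ, cexp (-π / (a * d) * (k - w 0) ^ 2) *
        cexp (-π * a * Q (fun i => x i) + 2 * π * I * (∑ i, (x i : ℝ) * (w i.succ + (k - w 0) * c i) : ℝ)) := by
    intro x
    have := one_dim hA (∑ i, c i * x i) (w 0)
    have e : ∀ k : ℤ, cexp (-π * a * R (fun i => ((Fin.cons k x : Fin (n + 1) → ℤ) i : ℝ)) +
        2 * π * I * (∑ i, (((Fin.cons k x : Fin (n + 1) → ℤ) i : ℤ) : ℝ) * w i : ℝ)) =
        cexp (-π * (a * d) * (k + (∑ i, c i * x i : ℝ)) ^ 2 + 2 * π * I * (k * w 0)) *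
          cexp (-π * a * Q (fun i => x i) + 2 * π * I * (∑ i, (x i : ℝ) * w i.succ : ℝ)) := fun k => by
      rw [← Complex.exp_add, hR]
      simp only [Fin.sum_univ_succ, Fin.cons_zero, Fin.cons_succ]
      congr 1
      push_cast
      ring
    simp only [e, tsum_mul_right, this]
    rw [mul_assoc, ← tsum_mul_right]
    congr 2
    funext k
    rw [← Complex.exp_add, ← Complex.exp_add]
    congr 1
    simp only [mul_add, Finset.sum_add_distrib]
    have : (∑ i, (x i : ℝ) * ((k - w 0) * c i)) = (∑ i, c i * x i) * (k - w 0) := by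
      rw [Finset.sum_mul]; exact Finset.sum_congr rfl fun i _ => by ring
    rw [this]
    push_cast
    ring
  simp only [e1, tsum_mul_left]
  have s3 : Summable fun p : ℤ × (Fin n → ℤ) => cexp (-π / (a * d) * (p.1 - w 0) ^ 2) *
        cexp (-π * a * Q (fun i => p.2 i) + 2 * π * I * (∑ i, (p.2 i : ℝ) * (w i.succ + (p.1 - w 0) * c i) : ℝ)) := by
    have t1 := sm1 (r := π * ((a * d)⁻¹).re) (mul_pos Real.pi_pos (re_inv_pos hA)) (w 0)
    have t2 := sQ (π * a.re) (mul_pos Real.pi_pos ha) 0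
    refine Summable.of_norm ((t1.mul_of_nonneg t2 (fun _ => (Real.exp_pos _).le)
      (fun _ => (Real.exp_pos _).le)).congr fun p => ?_)
    rw [norm_mul, Complex.norm_exp, Complex.norm_exp]
    congr 2
    · have : ((p.1 : ℂ) - w 0) ^ 2 = (((p.1 : ℝ) - w 0) ^ 2 : ℝ) := by push_cast; ring
      rw [this, div_eq_mul_inv]
      simp only [mul_re, neg_re, ofReal_re, neg_im, ofReal_im, mul_zero, sub_zero, neg_zero, zero_mul]
      ring
    · simp
  have c3 := Summable.tsum_comm (f := fun (k : ℤ) (x : Fin n → ℤ) => cexp (-π / (a * d) * (k - w 0) ^ 2) *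
        cexp (-π * a * Q (fun i => x i) + 2 * π * I * (∑ i, (x i : ℝ) * (w i.succ + (k - w 0) * c i) : ℝ))) s3
  rw [c3]
  simp only [tsum_mul_left, h a ha]
  have e2 : ∀ k : ℤ, ∑' ξ : Fin n → ℤ, cexp (-π / a * R' (fun i => ((Fin.cons k ξ : Fin (n + 1) → ℤ) i : ℝ) - w i)) =
      cexp (-π / (a * d) * (k - w 0) ^ 2) *
        ∑' ξ : Fin n → ℤ, cexp (-π / a * Q' (fun i => ξ i - (w i.succ + (k - w 0) * c i))) := fun k => by
    rw [← tsum_mul_left]
    congr 1
    funext ξ
    rw [← Complex.exp_add, hR']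
    simp only [Fin.cons_zero, Fin.cons_succ, sub_sub]
    congr 1
    push_cast
    field_simp
    ring
  simp only [e2]
  have e3 : (a * d) ^ (1 / 2 : ℂ) = a ^ (1 / 2 : ℂ) * (d : ℂ) ^ (1 / 2 : ℂ) := by
    rw [Complex.cpow_def_of_ne_zero ha0, Complex.cpow_def_of_ne_zero hd0,
      Complex.cpow_def_of_ne_zero (mul_ne_zero ha0 hd0), Complex.log_mul_ofReal d hd a ha0, ← Complex.exp_add,
      ← Complex.ofReal_log hd.le]
    congr 1; ring
  have e4 : ∀ (k : ℤ) (u v : ℂ), cexp (-π / (a * d) * (k - w 0) ^ 2) * (u * v) =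
    u * (cexp (-π / (a * d) * (k - w 0) ^ 2) * v) := fun _ _ _ => by ring
  simp only [e4, tsum_mul_left, e3]
  rw [pow_succ, one_div (_ * _), mul_inv]
  simp only [one_div]
  ring

/-- The quadratic form of a real matrix. -/
def qf {n : ℕ} (B : Matrix (Fin n) (Fin n) ℝ) (y : Fin n → ℝ) : ℝ := ∑ i, ∑ j, y i * B i j * y j

theorem qf_smul {n : ℕ} (B : Matrix (Fin n) (Fin n) ℝ) (t : ℝ) (y : Fin n → ℝ) : qf B (t • y) = t ^ 2 * qf B y := by
  simp only [qf, Finset.mul_sum, Pi.smul_apply, smul_eq_mul]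
  exact Finset.sum_congr rfl fun i _ => Finset.sum_congr rfl fun j _ => by ring

theorem sm_qf {n : ℕ} (B : Matrix (Fin n) (Fin n) ℝ) (h : ∀ y, y ≠ 0 → 0 < qf B y) : Sm n (qf B) := by
  rcases Nat.eq_zero_or_pos n with rfl | hn
  · intro r _ w; exact Summable.of_finite
  haveI : Nonempty (Fin n) := ⟨⟨0, hn⟩⟩
  have hc : Continuous (qf B) := by unfold qf; fun_prop
  obtain ⟨y0, hy0, hmin⟩ := (isCompact_sphere (0 : Fin n → ℝ) 1).exists_isMinOn
    (NormedSpace.sphere_nonempty.2 zero_le_one) hc.continuousOn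
  have hy : ‖y0‖ = 1 := by simpa using hy0
  have hε : 0 < qf B y0 := h y0 (by rintro rfl; simp at hy)
  refine Sm.of_le (ε := qf B y0 / n) (by positivity) fun y => ?_
  rcases eq_or_ne y 0 with rfl | hy1
  · simp [qf]
  have hp : 0 < ‖y‖ := norm_pos_iff.2 hy1
  have h1 : qf B y0 ≤ qf B (‖y‖⁻¹ • y) := hmin (by simp [norm_smul, hp.ne'])
  rw [qf_smul] at h1
  have h2 : ∑ i, y i ^ 2 ≤ n * ‖y‖ ^ 2 := by
    have : ∑ i, y i ^ 2 ≤ ∑ _i : Fin n, ‖y‖ ^ 2 := Finset.sum_le_sum fun i _ => by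
      rw [← sq_abs]; exact pow_le_pow_left₀ (abs_nonneg _) (norm_le_pi_norm y i) 2
    simpa using this
  have hn' : (0 : ℝ) < n := by exact_mod_cast hn
  calc qf B y0 / n * ∑ i, y i ^ 2 ≤ qf B y0 / n * (n * ‖y‖ ^ 2) := by gcongr
    _ = qf B y0 * ‖y‖ ^ 2 := by field_simp
    _ ≤ (‖y‖⁻¹ ^ 2 * qf B y) * ‖y‖ ^ 2 := by gcongr
    _ = qf B y := by field_simp

theorem qf_eq {n : ℕ} (B : Matrix (Fin n) (Fin n) ℝ) (y : Fin n → ℝ) : qf B y = y ⬝ᵥ (B.mulVec y) := by
  simp only [qf, dotProduct, Matrix.mulVec, Finset.mul_sum, mul_assoc]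

theorem qf_inv {n : ℕ} {B C : Matrix (Fin n) (Fin n) ℝ} (hB : B.IsSymm) (hC : B * C = 1) (y : Fin n → ℝ) :
    qf C y = qf B (C.mulVec y) := by
  rw [qf_eq, qf_eq, Matrix.mulVec_mulVec, hC, Matrix.one_mulVec, dotProduct_comm]

theorem inv_pos' {n : ℕ} {B C : Matrix (Fin n) (Fin n) ℝ} (hB : B.IsSymm) (hC : B * C = 1)
    (h : ∀ y, y ≠ 0 → 0 < qf B y) : ∀ y, y ≠ 0 → 0 < qf C y := by
  intro y hy
  rw [qf_inv hB hC]
  refine h _ fun h0 => hy ?_
  have := congrArg B.mulVec h0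
  rwa [Matrix.mulVec_mulVec, hC, Matrix.one_mulVec, Matrix.mulVec_zero] at this

theorem inv_symm {n : ℕ} {B C : Matrix (Fin n) (Fin n) ℝ} (hB : B.IsSymm) (hC : B * C = 1) : C.IsSymm := by
  have h1 : C.transpose * B = 1 := by
    have := congrArg Matrix.transpose hC
    rwa [Matrix.transpose_mul, hB.eq, Matrix.transpose_one] at this
  show C.transpose = C
  calc C.transpose = C.transpose * (B * C) := by rw [hC, mul_one]
    _ = C := by rw [← mul_assoc, h1, one_mul]

theorem poi_qf (n : ℕ) : ∀ B C : Matrix (Fin n) (Fin n) ℝ, B.IsSymm → B * C = 1 → (∀ y, y ≠ 0 → 0 < qf B y) →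
    Poi n (qf B) (qf C) := by
  induction n with
  | zero => intro B C _ _ _; exact ⟨1, fun a _ w => by simp [qf]⟩
  | succ n ih =>
    intro B C hB hC h
    have hCs := inv_symm hB hC
    have sB : ∀ i j, B i j = B j i := fun i j => hB.apply j i
    have sC : ∀ i j, C i j = C j i := fun i j => hCs.apply j i
    have hd : 0 < B 0 0 := by
      have := h (Pi.single 0 1) (by simp)
      simpa [qf, Pi.single_apply] using this
    set d := B 0 0 with hdd
    let c : Fin n → ℝ := fun i => B 0 i.succ / d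
    have hc : ∀ i, B 0 i.succ = d * c i := fun i => by simp only [c]; field_simp
    have hc' : ∀ i, B i.succ 0 = d * c i := fun i => by rw [sB, hc]
    let B' : Matrix (Fin n) (Fin n) ℝ := Matrix.of fun i j => B i.succ j.succ - d * c i * c j
    let C' : Matrix (Fin n) (Fin n) ℝ := Matrix.of fun i j => C i.succ j.succ
    have hBC : ∀ i k, ∑ j, B i j * C j k = if i = k then 1 else 0 := fun i k => by
      have := congrFun (congrFun hC i) k
      rwa [Matrix.mul_apply, Matrix.one_apply] at this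
    have r0 : ∀ k : Fin n, C 0 k.succ = -∑ j, c j * C j.succ k.succ := fun k => by
      have := hBC 0 k.succ
      rw [Fin.sum_univ_succ, if_neg (Fin.succ_ne_zero k).symm] at this
      simp only [hc, mul_assoc, ← Finset.mul_sum, ← hdd] at this
      have h2 : d * (C 0 k.succ + ∑ j, c j * C j.succ k.succ) = 0 := by linarith
      have := (mul_eq_zero.1 h2).resolve_left hd.ne'
      linarith
    have r00 : C 0 0 = 1 / d - ∑ j, c j * C j.succ 0 := by
      have := hBC 0 0
      rw [Fin.sum_univ_succ, if_pos rfl] at this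
      simp only [hc, mul_assoc, ← Finset.mul_sum, ← hdd] at this
      field_simp
      linarith
    have hR : ∀ y, qf B y = d * (y 0 + ∑ i, c i * y i.succ) ^ 2 + qf B' (fun i => y i.succ) := fun y => by
      simp only [qf, Fin.sum_univ_succ, B', Matrix.of_apply, hc, hc', ← hdd, Finset.sum_add_distrib, mul_sub, sub_mul,
        Finset.sum_sub_distrib]
      have a1 : ∑ j, y 0 * (d * c j) * y j.succ = d * y 0 * ∑ i, c i * y i.succ := by
        rw [Finset.mul_sum]; exact Finset.sum_congr rfl fun i _ => by ring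
      have a2 : ∑ j, y j.succ * (d * c j) * y 0 = d * y 0 * ∑ i, c i * y i.succ := by
        rw [Finset.mul_sum]; exact Finset.sum_congr rfl fun i _ => by ring
      have a3 : ∑ i, ∑ j, y i.succ * (d * c i * c j) * y j.succ = d * (∑ i, c i * y i.succ) ^ 2 := by
        rw [sq, Finset.sum_mul_sum, Finset.mul_sum]
        refine Finset.sum_congr rfl fun i _ => ?_
        rw [Finset.mul_sum]; exact Finset.sum_congr rfl fun j _ => by ring
      rw [a1, a2, a3]; ring
    have hR' : ∀ y, qf C y = y 0 ^ 2 / d + qf C' (fun i => y i.succ - y 0 * c i) := fun y => by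
      have r1 : ∀ k : Fin n, C k.succ 0 = -∑ j, c j * C j.succ k.succ := fun k => by rw [sC, r0]
      simp only [qf, Fin.sum_univ_succ, C', Matrix.of_apply, r00, r0, r1, Finset.sum_add_distrib, mul_sub, sub_mul,
        Finset.sum_sub_distrib]
      have a1 : ∑ j : Fin n, (y 0 * -∑ i, c i * C i.succ j.succ) * y j.succ =
          -∑ i : Fin n, ∑ j : Fin n, y 0 * c i * C i.succ j.succ * y j.succ := by
        rw [Finset.sum_comm, ← Finset.sum_neg_distrib]
        refine Finset.sum_congr rfl fun j _ => ?_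
        rw [mul_neg, neg_mul, Finset.mul_sum, Finset.sum_mul]
        congr 1; exact Finset.sum_congr rfl fun i _ => by ring
      have a2 : ∑ j : Fin n, (y j.succ * -∑ i, c i * C i.succ j.succ) * y 0 =
          -∑ i : Fin n, ∑ j : Fin n, y i.succ * C i.succ j.succ * (y 0 * c j) := by
        rw [← Finset.sum_neg_distrib]
        refine Finset.sum_congr rfl fun j _ => ?_
        rw [mul_neg, neg_mul, Finset.mul_sum, Finset.sum_mul]
        congr 1; exact Finset.sum_congr rfl fun i _ => by rw [sC i.succ]; ring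
      have a3 : y 0 * (∑ j : Fin n, c j * -∑ i, c i * C i.succ j.succ) * y 0 =
          -∑ i : Fin n, ∑ j : Fin n, y 0 * c i * C i.succ j.succ * (y 0 * c j) := by
        rw [Finset.sum_comm, ← Finset.sum_neg_distrib, Finset.mul_sum, Finset.sum_mul]
        refine Finset.sum_congr rfl fun j _ => ?_
        rw [mul_neg, mul_neg, neg_mul, Finset.mul_sum, Finset.mul_sum, Finset.sum_mul]
        congr 1; exact Finset.sum_congr rfl fun i _ => by ring
      rw [a1, a2, a3]; ring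
    have hB' : B'.IsSymm := Matrix.IsSymm.ext fun i j => by simp only [B', Matrix.of_apply, sB j.succ]; ring
    have hC' : B' * C' = 1 := by
      ext i k
      have := hBC i.succ k.succ
      rw [Fin.sum_univ_succ, hc', r0] at this
      simp only [Matrix.mul_apply, Matrix.one_apply, B', C', Matrix.of_apply, sub_mul, Finset.sum_sub_distrib,
        mul_assoc, ← Finset.mul_sum]
      simp only [Fin.succ_inj] at this
      rw [← this]; ring
    have h' : ∀ y, y ≠ 0 → 0 < qf B' y := fun y hy => by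
      have := h (Fin.cons (-∑ i, c i * y i) y) (fun h0 => hy (funext fun i => by simpa using congrFun h0 i.succ))
      rw [hR] at this
      simpa using this
    exact Poi.step hd c hR hR' (sm_qf _ h') (sm_qf _ h) (sm_qf _ (inv_pos' hB hC h)) (ih B' C' hB' hC' h')

end CF.Leech.Pois
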