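import Cfsg.Agent.Leech.Pois

/-! The theta series of an even unimodular lattice of rank 24 is a modular form of weight 12. -/

set_option autoImplicit false

namespace CF.Leech.Pois

open UpperHalfPlane hiding I
open Complex ModularForm SlashInvariantForm Matrix EisensteinSeries
open scoped Real MatrixGroups ModularForm Manifold

/-- Hypotheses on the Gram matrix. -/
structure EU (B : Matrix (Fin 24) (Fin 24) ℤ) : Prop where
  symm : B.IsSymm
  pos : ∀ x : Fin 24 → ℤ, x ≠ 0 → 0 < x ⬝ᵥ (B *ᵥ x)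
  even : ∀ x : Fin 24 → ℤ, (2 : ℤ) ∣ x ⬝ᵥ (B *ᵥ x)
  det : B.det = 1

/-- The real matrix. -/
def re24 (B : Matrix (Fin 24) (Fin 24) ℤ) : Matrix (Fin 24) (Fin 24) ℝ := B.map (Int.castRingHom ℝ)

theorem qf_int (B : Matrix (Fin 24) (Fin 24) ℤ) (x : Fin 24 → ℤ) :
    qf (re24 B) (fun i => x i) = (x ⬝ᵥ (B *ᵥ x) : ℤ) := by
  simp only [qf, re24, dotProduct, Matrix.mulVec, Finset.mul_sum, mul_assoc, Matrix.map_apply, eq_intCast]
  push_cast
  rfl

/-- The theta series. -/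
noncomputable def th (B : Matrix (Fin 24) (Fin 24) ℤ) (τ : ℍ) : ℂ :=
  ∑' x : Fin 24 → ℤ, cexp (π * I * τ * (x ⬝ᵥ (B *ᵥ x) : ℤ))

variable {B : Matrix (Fin 24) (Fin 24) ℤ}

theorem EU.posQ (h : EU B) : (B.map (Int.castRingHom ℚ)).PosDef := by
  refine Matrix.PosDef.of_dotProduct_mulVec_pos ?_ fun y hy => ?_
  · show (B.map (Int.castRingHom ℚ)).conjTranspose = _
    rw [Matrix.conjTranspose_eq_transpose_of_trivial, ← Matrix.transpose_map, h.symm.eq]
  · obtain ⟨⟨m, hm⟩, hm2⟩ := IsLocalization.exist_integer_multiples_of_finite (nonZeroDivisors ℤ) y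
    choose x hx using hm2
    have hm0 : (m : ℚ) ≠ 0 := by exact_mod_cast nonZeroDivisors.ne_zero hm
    have hx' : ∀ i, y i = x i / m := fun i => by
      have := hx i
      simp only [eq_intCast, zsmul_eq_mul] at this
      rw [this]; field_simp
    have hx0 : x ≠ 0 := fun h0 => hy (funext fun i => by rw [hx', h0]; simp)
    have h1 : (0 : ℚ) < (x ⬝ᵥ (B *ᵥ x) : ℤ) := by exact_mod_cast h.pos x hx0
    have : star y ⬝ᵥ (B.map (Int.castRingHom ℚ)) *ᵥ y = (x ⬝ᵥ (B *ᵥ x) : ℤ) / m ^ 2 := by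
      simp only [dotProduct, Matrix.mulVec, Finset.mul_sum, Matrix.map_apply, eq_intCast, star_trivial, hx']
      push_cast
      simp only [Finset.sum_div, Finset.mul_sum]
      exact Finset.sum_congr rfl fun i _ => Finset.sum_congr rfl fun j _ => by field_simp
    rw [this]; positivity

theorem EU.mul_adj (h : EU B) : re24 B * re24 B.adjugate = 1 := by
  unfold re24
  rw [← Matrix.map_mul, Matrix.mul_adjugate, h.det, one_smul, Matrix.map_one _ (map_zero _) (map_one _)]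

theorem EU.symmR (h : EU B) : (re24 B).IsSymm := by
  show (B.map _).transpose = _
  rw [← Matrix.transpose_map, h.symm.eq]; rfl

theorem EU.posR (h : EU B) : ∀ y, y ≠ 0 → 0 < qf (re24 B) y := by
  have hc : Continuous (qf (re24 B)) := by unfold qf; fun_prop
  have h0 : ∀ y, 0 ≤ qf (re24 B) y := fun y => by
    have hd : DenseRange (Pi.map (fun _ : Fin 24 => ((↑) : ℚ → ℝ))) := DenseRange.piMap fun _ => Rat.denseRange_cast
    refine hd.induction_on y (isClosed_le continuous_const hc) fun q => ?_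
    have h1 := h.posQ.posSemidef.dotProduct_mulVec_nonneg q
    have : qf (re24 B) (Pi.map (fun _ : Fin 24 => ((↑) : ℚ → ℝ)) q) =
        ((star q ⬝ᵥ (B.map (Int.castRingHom ℚ)) *ᵥ q : ℚ) : ℝ) := by
      simp only [qf, re24, dotProduct, Matrix.mulVec, Finset.mul_sum, mul_assoc, Matrix.map_apply, eq_intCast,
        star_trivial, Pi.map_apply]
      push_cast
      rfl
    rw [this]; exact_mod_cast h1
  have hP : (re24 B).PosSemidef := by
    refine Matrix.PosSemidef.of_dotProduct_mulVec_nonneg ?_ fun y => ?_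
    · show (re24 B).conjTranspose = _
      rw [Matrix.conjTranspose_eq_transpose_of_trivial, h.symmR.eq]
    · rw [star_trivial, ← qf_eq]; exact h0 y
  intro y hy
  refine (h0 y).lt_of_ne fun e => hy ?_
  have h1 : re24 B *ᵥ y = 0 := (hP.dotProduct_mulVec_zero_iff y).1 (by rw [star_trivial, ← qf_eq, ← e])
  have h2 : re24 B.adjugate * re24 B = 1 := mul_eq_one_comm.1 h.mul_adj
  have := congrArg (re24 B.adjugate).mulVec h1
  rwa [Matrix.mulVec_mulVec, h2, Matrix.one_mulVec, Matrix.mulVec_zero] at this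

theorem EU.sm (h : EU B) {r : ℝ} (hr : 0 < r) :
    Summable fun x : Fin 24 → ℤ => Real.exp (-r * (x ⬝ᵥ (B *ᵥ x) : ℤ)) := by
  have := sm_qf _ h.posR r hr 0
  simpa only [Pi.zero_apply, sub_zero, qf_int] using this

/-- Multiplication by the adjugate. -/
def EU.eqv (h : EU B) : (Fin 24 → ℤ) ≃ (Fin 24 → ℤ) where
  toFun x := B.adjugate *ᵥ x
  invFun x := B *ᵥ x
  left_inv x := by simp only [Matrix.mulVec_mulVec, Matrix.mul_adjugate, h.det, one_smul, Matrix.one_mulVec]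
  right_inv x := by simp only [Matrix.mulVec_mulVec, Matrix.adjugate_mul, h.det, one_smul, Matrix.one_mulVec]

theorem EU.fe (h : EU B) (a : ℂ) (ha : 0 < a.re) :
    ∑' x : Fin 24 → ℤ, cexp (-π * a * (x ⬝ᵥ (B *ᵥ x) : ℤ)) =
      (1 / a ^ 12) * ∑' x : Fin 24 → ℤ, cexp (-π / a * (x ⬝ᵥ (B *ᵥ x) : ℤ)) := by
  obtain ⟨κ, hκ⟩ := poi_qf 24 _ _ h.symmR h.mul_adj h.posR
  have key : ∀ a : ℂ, 0 < a.re → ∑' x : Fin 24 → ℤ, cexp (-π * a * (x ⬝ᵥ (B *ᵥ x) : ℤ)) =
      κ * (1 / a ^ 12) * ∑' x : Fin 24 → ℤ, cexp (-π / a * (x ⬝ᵥ (B *ᵥ x) : ℤ)) := fun a ha => by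
    have := hκ a ha 0
    simp only [Pi.zero_apply, mul_zero, Finset.sum_const_zero, ofReal_zero, add_zero, sub_zero, qf_int,
      ofReal_intCast] at this
    rw [this, ← h.eqv.tsum_eq (fun x => cexp (-π / a * (x ⬝ᵥ (B *ᵥ x) : ℤ)))]
    congr 1
    · congr 1
      rw [_root_.one_div_pow, ← Complex.cpow_mul_nat]
      norm_num
    · congr 1
      funext x
      congr 3
      show _ = (B.adjugate *ᵥ x) ⬝ᵥ (B *ᵥ (B.adjugate *ᵥ x))
      rw [Matrix.mulVec_mulVec, Matrix.mul_adjugate, h.det, one_smul, Matrix.one_mulVec, dotProduct_comm]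
  have h1 := key 1 (by simp)
  simp only [mul_one, one_pow, div_one] at h1
  have hne : ∑' x : Fin 24 → ℤ, cexp (-π * (x ⬝ᵥ (B *ᵥ x) : ℤ)) ≠ 0 := by
    have : ∑' x : Fin 24 → ℤ, cexp (-π * (x ⬝ᵥ (B *ᵥ x) : ℤ)) =
        (∑' x : Fin 24 → ℤ, Real.exp (-π * (x ⬝ᵥ (B *ᵥ x) : ℤ)) : ℝ) := by
      rw [Complex.ofReal_tsum]; push_cast; rfl
    rw [this]
    exact_mod_cast ((h.sm Real.pi_pos).tsum_pos (fun _ => (Real.exp_pos _).le) 0 (Real.exp_pos _)).ne'
  have hk : κ = 1 := by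
    have : (κ - 1) * ∑' x : Fin 24 → ℤ, cexp (-π * (x ⬝ᵥ (B *ᵥ x) : ℤ)) = 0 := by linear_combination -h1
    exact sub_eq_zero.1 ((mul_eq_zero.1 this).resolve_right hne)
  rw [key a ha, hk, one_mul]

theorem EU.th_S (h : EU B) : th B ∣[(12 : ℤ)] ModularGroup.S = th B := by
  ext z
  have hz := z.ne_zero
  have := h.fe (-I * z) (by simpa using z.im_pos)
  have e1 : ∀ m : ℤ, -π * (-I * z) * m = π * I * z * m := fun m => by ring
  have e2 : ∀ m : ℤ, -π / (-I * (z : ℂ)) * m = π * I * (-(z : ℂ)⁻¹) * m := fun m => by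
    field_simp
    rw [I_sq]; ring
  have e3 : (-I * (z : ℂ)) ^ 12 = z ^ 12 := by
    rw [mul_pow, show (12 : ℕ) = 2 * 6 from rfl, pow_mul, neg_sq, I_sq]; norm_num
  simp only [e1, e2, e3] at this
  rw [SL_slash_apply, UpperHalfPlane.modular_S_smul, ModularGroup.denom_S]
  simp only [th, this]
  simp
  field_simp

theorem EU.th_T (h : EU B) : th B ∣[(12 : ℤ)] ModularGroup.T = th B := by
  ext z
  have hd : denom ModularGroup.T z = 1 := by
    rw [ModularGroup.denom_apply]; simp [ModularGroup.T]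
  rw [SL_slash_apply, hd, modular_T_smul]
  simp only [th]
  have : ∀ x : Fin 24 → ℤ, cexp (π * I * ((1 : ℝ) +ᵥ z : ℍ) * (x ⬝ᵥ (B *ᵥ x) : ℤ)) =
      cexp (π * I * z * (x ⬝ᵥ (B *ᵥ x) : ℤ)) := fun x => by
    obtain ⟨m, hm⟩ := h.even x
    rw [hm, coe_vadd, ← mul_one (cexp (π * I * z * _)), ← Complex.exp_int_mul_two_pi_mul_I m, ← Complex.exp_add]
    congr 1; push_cast; ring
  simp only [this, _root_.one_zpow, mul_one]

/-- The number of vectors of norm `2 m`. -/
noncomputable def cnt (B : Matrix (Fin 24) (Fin 24) ℤ) (m : ℕ) : ℕ := {x : Fin 24 → ℤ | x ⬝ᵥ (B *ᵥ x) = 2 * m}.ncard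

theorem EU.summable (h : EU B) (τ : ℍ) :
    Summable fun x : Fin 24 → ℤ => cexp (π * I * τ * (x ⬝ᵥ (B *ᵥ x) : ℤ)) := by
  refine Summable.of_norm ((h.sm (mul_pos Real.pi_pos τ.im_pos)).congr fun x => ?_)
  rw [Complex.norm_exp]
  congr 1
  simp only [mul_re, ofReal_re, Complex.I_re, ofReal_im, Complex.I_im, mul_im, intCast_re, intCast_im, coe_re, coe_im]
  ring

theorem EU.nonneg (h : EU B) (x : Fin 24 → ℤ) : 0 ≤ x ⬝ᵥ (B *ᵥ x) := by
  rcases eq_or_ne x 0 with rfl | hx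
  · simp
  · exact (h.pos x hx).le

theorem EU.hasSum (h : EU B) (τ : ℍ) :
    HasSum (fun m => (cnt B m : ℂ) • Function.Periodic.qParam 1 τ ^ m) (th B τ) := by
  let N : (Fin 24 → ℤ) → ℕ := fun x => (x ⬝ᵥ (B *ᵥ x) / 2).toNat
  have hN : ∀ x m, N x = m ↔ x ⬝ᵥ (B *ᵥ x) = 2 * m := fun x m => by
    obtain ⟨k, hk⟩ := h.even x
    have := h.nonneg x
    simp only [N]; omega
  have h1 := (h.summable τ).hasSum
  rw [← (Equiv.sigmaFiberEquiv N).hasSum_iff] at h1
  refine h1.sigma fun m => ?_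
  have h2 := h1.summable.sigma_factor m
  have e : ∀ x : {x // N x = m}, ((fun x : Fin 24 → ℤ => cexp (π * I * τ * (x ⬝ᵥ (B *ᵥ x) : ℤ))) ∘
      (Equiv.sigmaFiberEquiv N)) ⟨m, x⟩ = Function.Periodic.qParam 1 τ ^ m := fun x => by
    show cexp (π * I * τ * (x.1 ⬝ᵥ (B *ᵥ x.1) : ℤ)) = _
    rw [(hN _ _).1 x.2, Function.Periodic.qParam, ← Complex.exp_nat_mul]
    congr 1; push_cast; ring
  simp only [e] at h2 ⊢
  have h3 := h2.hasSum
  rw [tsum_const] at h3
  rw [Nat.cast_smul_eq_nsmul]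
  suffices hh : cnt B m = Nat.card {x // N x = m} by rw [hh]; exact h3
  rw [cnt, ← Nat.card_coe_set_eq]
  exact Nat.card_congr (Equiv.subtypeEquivRight fun x => (hN x m).symm)

theorem EU.holo (h : EU B) : MDiff (th B) := by
  rw [UpperHalfPlane.mdifferentiable_iff]
  intro z hz
  have hz' : 0 < z.im := hz
  have hU : IsOpen {w : ℂ | z.im / 2 < w.im} := isOpen_lt continuous_const Complex.continuous_im
  have hd : DifferentiableOn ℂ (fun w : ℂ => ∑' x : Fin 24 → ℤ, cexp (π * I * w * (x ⬝ᵥ (B *ᵥ x) : ℤ)))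
      {w : ℂ | z.im / 2 < w.im} := by
    refine differentiableOn_tsum_of_summable_norm (h.sm (r := π * (z.im / 2)) (by have := Real.pi_pos; positivity))
      (fun x => by fun_prop) hU fun x w hw => ?_
    rw [Complex.norm_exp, Real.exp_le_exp]
    simp only [mul_re, ofReal_re, Complex.I_re, ofReal_im, Complex.I_im, mul_im, intCast_re, intCast_im]
    have h1 : (0 : ℝ) ≤ (x ⬝ᵥ (B *ᵥ x) : ℤ) := by exact_mod_cast h.nonneg x
    have h2 : z.im / 2 < w.im := hw
    have := mul_nonneg (mul_nonneg Real.pi_pos.le h1) (sub_nonneg.2 h2.le)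
    nlinarith
  have hz2 : z ∈ {w : ℂ | z.im / 2 < w.im} := by show z.im / 2 < z.im; linarith
  refine ((hd.differentiableAt (hU.mem_nhds hz2)).differentiableWithinAt).congr (fun w hw => ?_) ?_
  · simp [th, ofComplex_apply_of_im_pos hw]
  · simp [th, ofComplex_apply_of_im_pos hz']

/-- The theta series as a modular form. -/
noncomputable def EU.mf (h : EU B) : ModularForm 𝒮ℒ 12 where
  toFun := th B
  slash_action_eq' A hA := by
    obtain ⟨A, rfl⟩ := hA
    exact slash_action_generators_SL2Z h.th_S h.th_T A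
  holo' := h.holo
  bdd_at_cusps' hc := by
    rw [Subgroup.IsArithmetic.isCusp_iff_isCusp_SL2Z] at hc
    rw [OnePoint.isBoundedAt_iff_forall_SL2Z hc]
    intro γ _
    rw [slash_action_generators_SL2Z h.th_S h.th_T]
    exact isBoundedAtImInfty_of_hasSum_qExpansion one_pos h.hasSum

theorem EU.coeff (h : EU B) (m : ℕ) : (qExpansion 1 h.mf).coeff m = cnt B m :=
  (ModularFormClass.qExpansion_coeff_unique one_pos one_mem_strictPeriods_SL (f := h.mf) h.hasSum m).symm

/-- The comparison form. -/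
noncomputable def cmp12 : ModularForm 𝒮ℒ 12 :=
  (7 / 12 : ℂ) • ModularForm.mcast (by decide) (E₄.pow 3) + (5 / 12 : ℂ) • ModularForm.mcast (by decide) (E₆.pow 2)

theorem cmp12_q : qExpansion 1 cmp12 = (7 / 12 : ℂ) • (qExpansion 1 E₄ * qExpansion 1 E₄ * qExpansion 1 E₄) +
    (5 / 12 : ℂ) • (qExpansion 1 E₆ * qExpansion 1 E₆) := by
  rw [cmp12, FunLike.coe_add, ModularForm.qExpansion_add one_pos one_mem_strictPeriods_SL, FunLike.coe_smul,
    FunLike.coe_smul, ModularForm.qExpansion_smul one_pos one_mem_strictPeriods_SL,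
    ModularForm.qExpansion_smul one_pos one_mem_strictPeriods_SL]
  simp only [coe_mcast, ModularForm.qExpansion_pow one_pos one_mem_strictPeriods_SL]
  congr 2 <;> ring

theorem e4c (m : ℕ) : (qExpansion 1 E₄).coeff m = if m = 0 then 1 else (240 * ArithmeticFunction.sigma 3 m : ℕ) := by
  rw [E_qExpansion_coeff _ ⟨2, rfl⟩, show bernoulli 4 = -1 / 30 by decide +kernel]
  split_ifs <;> norm_num

theorem e6c (m : ℕ) : (qExpansion 1 E₆).coeff m = if m = 0 then 1 else -((504 * ArithmeticFunction.sigma 5 m : ℕ) : ℂ) := by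
  rw [E_qExpansion_coeff _ ⟨3, rfl⟩, show bernoulli 6 = 1 / 42 by decide +kernel]
  split_ifs <;> norm_num

theorem cmp12_c : (qExpansion 1 cmp12).coeff 0 = 1 ∧ (qExpansion 1 cmp12).coeff 1 = 0 ∧
    (qExpansion 1 cmp12).coeff 2 = 196560 ∧ (qExpansion 1 cmp12).coeff 3 = 16773120 ∧
    (qExpansion 1 cmp12).coeff 4 = 398034000 := by
  have a0 : (qExpansion 1 E₄).coeff 0 = 1 := by rw [e4c]; simp
  have a1 : (qExpansion 1 E₄).coeff 1 = 240 := by rw [e4c]; simp
  have a2 : (qExpansion 1 E₄).coeff 2 = 2160 := by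
    rw [e4c, show ArithmeticFunction.sigma 3 2 = 9 by decide +kernel]; norm_num
  have a3 : (qExpansion 1 E₄).coeff 3 = 6720 := by
    rw [e4c, show ArithmeticFunction.sigma 3 3 = 28 by decide +kernel]; norm_num
  have a4 : (qExpansion 1 E₄).coeff 4 = 17520 := by
    rw [e4c, show ArithmeticFunction.sigma 3 4 = 73 by decide +kernel]; norm_num
  have b0 : (qExpansion 1 E₆).coeff 0 = 1 := by rw [e6c]; simp
  have b1 : (qExpansion 1 E₆).coeff 1 = -504 := by rw [e6c]; simp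
  have b2 : (qExpansion 1 E₆).coeff 2 = -16632 := by
    rw [e6c, show ArithmeticFunction.sigma 5 2 = 33 by decide +kernel]; norm_num
  have b3 : (qExpansion 1 E₆).coeff 3 = -122976 := by
    rw [e6c, show ArithmeticFunction.sigma 5 3 = 244 by decide +kernel]; norm_num
  have b4 : (qExpansion 1 E₆).coeff 4 = -532728 := by
    rw [e6c, show ArithmeticFunction.sigma 5 4 = 1057 by decide +kernel]; norm_num
  rw [cmp12_q]
  generalize qExpansion 1 E₄ = p at *
  generalize qExpansion 1 E₆ = q at *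
  simp only [map_add, PowerSeries.coeff_smul, PowerSeries.coeff_mul, Finset.Nat.antidiagonal_succ,
    Finset.Nat.antidiagonal_zero, Finset.sum_cons, Finset.sum_map, Finset.sum_singleton,
    Function.Embedding.coe_prodMap, Prod.map_apply, Function.Embedding.coeFn_mk, Function.Embedding.refl_apply,
    Nat.reduceAdd, Nat.succ_eq_add_one, a0, a1, a2, a3, a4, b0, b1, b2, b3, b4, smul_eq_mul, zero_add]
  norm_num

theorem EU.counts (h : EU B) (h2 : ∀ x : Fin 24 → ℤ, x ⬝ᵥ (B *ᵥ x) ≠ 2) :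
    cnt B 2 = 196560 ∧ cnt B 3 = 16773120 ∧ cnt B 4 = 398034000 := by
  obtain ⟨c0, c1, c2, c3, c4⟩ := cmp12_c
  have t0 : cnt B 0 = 1 := by
    rw [cnt, Set.ncard_eq_one]
    refine ⟨0, Set.ext fun x => ⟨fun hx => ?_, fun hx => ?_⟩⟩
    · by_contra h0
      have := h.pos x h0
      rw [hx] at this; simp at this
    · rw [Set.mem_singleton_iff.1 hx]; simp
  have t1 : cnt B 1 = 0 := by
    rw [cnt, show {x : Fin 24 → ℤ | x ⬝ᵥ (B *ᵥ x) = 2 * (1 : ℕ)} = ∅ from
      Set.eq_empty_of_forall_notMem fun x hx => h2 x (by simpa using hx), Set.ncard_empty]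
  have hq : qExpansion 1 (h.mf - cmp12 : ModularForm 𝒮ℒ 12) = qExpansion 1 h.mf - qExpansion 1 cmp12 := by
    rw [FunLike.coe_sub, ModularForm.qExpansion_sub one_pos one_mem_strictPeriods_SL]
  have hz : h.mf - cmp12 = 0 := by
    refine sturm_bound_levelOne (lt_of_lt_of_le (b := ((2 : ℕ) : ℕ∞)) (by decide) ?_)
    refine PowerSeries.nat_le_order _ _ fun i hi => ?_
    rw [hq, map_sub, h.coeff]
    interval_cases i
    · rw [c0, t0]; simp
    · rw [c1, t1]; simp
  have he : h.mf = cmp12 := sub_eq_zero.1 hz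
  rw [← he, h.coeff] at c2 c3 c4
  exact ⟨by exact_mod_cast c2, by exact_mod_cast c3, by exact_mod_cast c4⟩

end CF.Leech.Pois
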